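import Cfsg.Agent.Lib.BrauerCharacters.BlockOneSimple

/-!
# A block algebra of dimension equal to the order of a Sylow subgroup

If the quotient of `K[G]` by the annihilator of a central idempotent has dimension `|P|` for a
`p`-subgroup `P`, then it is the group algebra of `P` and every `p'`-element acts trivially.
-/

set_option autoImplicit false
set_option linter.style.haveILetI false

namespace CfsgLib.BrauerCharacters.PLengthBlock

open MonoidAlgebra Module CfsgLib.Blocks

variable {K : Type*} [Field K]

/-- A non-zero right ideal of the group algebra of a `p`-group contains a non-zero element fixed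
by right translations. -/
theorem exists_fixed_mem {p : ℕ} [hp : Fact p.Prime] [CharP K p] {P : Type*} [Group P] [Finite P]
    (hP : IsPGroup p P) (W : AddSubgroup (MonoidAlgebra K P)) (hne : W ≠ ⊥)
    (hW : ∀ x ∈ W, ∀ y : P, x * single y 1 ∈ W) :
    ∃ x ∈ W, x ≠ 0 ∧ ∀ y : P, x * single y 1 = x := by
  classical
  obtain ⟨w, hwW, hw0⟩ := W.bot_or_exists_ne_zero.resolve_left hne
  set S := AddSubgroup.closure (Set.range fun y : P => w * single y (1 : K)) with hS
  have hSW : S ≤ W := (AddSubgroup.closure_le _).2 (by rintro _ ⟨y, rfl⟩; exact hW w hwW y)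
  have hpS : ∀ x : S, p • x = 0 := fun x => Subtype.ext <| by
    rw [AddSubgroup.coe_nsmul, AddSubgroup.coe_zero]
    rw [← Nat.cast_smul_eq_nsmul K, CharP.cast_eq_zero, zero_smul]
  haveI : Finite S := by
    haveI : AddGroup.FG S := by
      rw [AddGroup.fg_iff_addSubgroup_fg, AddSubgroup.fg_iff]
      exact ⟨_, hS.symm, Set.finite_range _⟩
    exact AddCommGroup.finite_of_fg_torsion S fun x =>
      isOfFinAddOrder_iff_nsmul_eq_zero.2 ⟨p, hp.out.pos, hpS x⟩
  have hmem : ∀ x ∈ S, ∀ y : P, x * single y (1 : K) ∈ S := by
    intro x hx y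
    induction hx using AddSubgroup.closure_induction with
    | mem z hz =>
      obtain ⟨u, rfl⟩ := hz
      refine AddSubgroup.subset_closure ⟨u * y, ?_⟩
      simp [mul_assoc, single_mul_single]
    | zero => simp
    | add a b _ _ ha hb => rw [add_mul]; exact S.add_mem ha hb
    | neg a _ ha => rw [neg_mul]; exact S.neg_mem ha
  letI act : MulAction P S :=
    { smul := fun y x => ⟨(x : MonoidAlgebra K P) * single y⁻¹ (1 : K), hmem x x.2 _⟩
      one_smul := fun x => Subtype.ext (show (x : MonoidAlgebra K P) * single (1 : P)⁻¹ (1 : K) = x by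
        rw [inv_one, ← one_def, mul_one])
      mul_smul := fun y z x => Subtype.ext
        (show (x : MonoidAlgebra K P) * single (y * z)⁻¹ (1 : K) =
          ((x : MonoidAlgebra K P) * single z⁻¹ (1 : K)) * single y⁻¹ (1 : K) by
          rw [mul_assoc, single_mul_single, mul_one, mul_inv_rev]) }
  have hwS : w ∈ S := AddSubgroup.subset_closure ⟨1, by simp [← one_def]⟩
  have hcard : p ∣ Nat.card S := by
    have h := addOrderOf_eq_prime (hpS ⟨w, hwS⟩) (fun h => hw0 (congrArg Subtype.val h))
    exact h ▸ addOrderOf_dvd_natCard _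
  have h0 : (0 : S) ∈ MulAction.fixedPoints P S := fun y =>
    Subtype.ext (show (0 : MonoidAlgebra K P) * single y⁻¹ (1 : K) = 0 from zero_mul _)
  obtain ⟨x, hx, hx0⟩ := hP.exists_fixed_point_of_prime_dvd_card_of_fixed_point S hcard h0
  refine ⟨x, hSW x.2, fun h => hx0 (Subtype.ext h.symm), fun y => ?_⟩
  have h : (x : MonoidAlgebra K P) * single y⁻¹⁻¹ (1 : K) = x := congrArg Subtype.val (hx y⁻¹)
  rwa [inv_inv] at h

/-- A right-fixed element is a multiple of the sum of all elements. -/
theorem coeff_eq_of_fixed {P : Type*} [Group P] {x : MonoidAlgebra K P}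
    (hx : ∀ y : P, x * single y 1 = x) (y : P) : x.coeff y = x.coeff 1 := by
  conv_lhs => rw [← hx y]
  rw [coeff_mul_single_apply, mul_one, mul_inv_cancel]

/-- The augmentation of a group algebra. -/
noncomputable abbrev aug (K : Type*) [CommRing K] (G : Type*) [Monoid G] :
    MonoidAlgebra K G →ₐ[K] K :=
  MonoidAlgebra.lift K K G (1 : G →* K)

theorem aug_single {G : Type*} [Monoid G] (g : G) (r : K) : aug K G (single g r) = r := by
  simp [aug]

/-- An idempotent of augmentation zero of the group algebra of a `p`-group vanishes. -/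
theorem idempotent_eq_zero {p : ℕ} [Fact p.Prime] [CharP K p] {P : Type*} [Group P] [Finite P]
    (hP : IsPGroup p P) {x : MonoidAlgebra K P} (hxx : x * x = x) (hx : aug K P x = 0) :
    x = 0 := by
  classical
  by_contra hne
  haveI := Fintype.ofFinite P
  let W := (LinearMap.range (LinearMap.mulLeft K x)).toAddSubgroup
  have hxW : x ∈ W := ⟨x, hxx⟩
  obtain ⟨z, hzW, hz0, hzfix⟩ := exists_fixed_mem hP W
    (fun h => hne (by simpa [h] using hxW))
    (by rintro _ ⟨a, rfl⟩ y; exact ⟨a * single y 1, by simp [mul_assoc]⟩)
  obtain ⟨a, rfl⟩ := hzW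
  apply hz0
  set z := (LinearMap.mulLeft K x) a with hz
  have hxz : x * z = z := by simp [hz, ← mul_assoc, hxx]
  have hzs : z = z.coeff 1 • ∑ y : P, single y (1 : K) := by
    refine MonoidAlgebra.ext (Finsupp.ext fun g => ?_)
    simp [coeff_sum, coeff_single, Finsupp.single_apply, coeff_eq_of_fixed hzfix g]
  have hy : ∀ y : P, single y (1 : K) * ∑ u : P, single u (1 : K) = ∑ u : P, single u (1 : K) := by
    intro y
    rw [Finset.mul_sum]
    exact Fintype.sum_equiv (Equiv.mulLeft y) _ _ fun u => by simp [single_mul_single]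
  have hmul : ∀ a : MonoidAlgebra K P, a * ∑ u : P, single u (1 : K) =
      aug K P a • ∑ u : P, single u (1 : K) := by
    intro a
    induction a using MonoidAlgebra.induction_linear with
    | zero => simp
    | add a b ha hb => rw [add_mul, ha, hb, map_add, add_smul]
    | single m r =>
      rw [aug_single, show single m r = r • single m (1 : K) by simp, smul_mul_assoc, hy]
  rw [← hxz]
  conv_lhs => rw [hzs, mul_smul_comm, hmul, hx, zero_smul, smul_zero]

/-- The structure of the block algebra of dimension `|P|`. -/
theorem annMap_eq_one_of_finrank {p : ℕ} [hp : Fact p.Prime] [CharP K p] {G : Type*} [Group G]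
    [Fintype G] {e : MonoidAlgebra K G} [(annIdeal e).IsTwoSided]
    (hee : e * e = e) (P : Subgroup G) (hP : IsPGroup p P)
    (hsupp : ∀ y ∈ P, y ≠ 1 → e.coeff y = 0) (h1 : e.coeff 1 ≠ 0)
    (haug : aug K G e ≠ 0)
    (hdim : finrank K (MonoidAlgebra K G ⧸ annIdeal e) = Nat.card P) :
    (∀ y ∈ P, annMap e (single y 1) = 1 → y = 1) ∧
      ∀ g : G, ¬ p ∣ orderOf g → annMap e (single g 1) = 1 := by
  classical
  haveI := Fintype.ofFinite P
  haveI := finiteDimensional_annQuot (e := e)
  let incl : MonoidAlgebra K P →ₐ[K] MonoidAlgebra K G := mapDomainAlgHom K K P.subtype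
  let Φ := (annMap e).comp incl
  have hincl : ∀ (y : P) (r : K), incl (single y r) = single (y : G) r := fun y r => by simp [incl]
  have hinj : Function.Injective Φ := by
    rw [injective_iff_map_eq_zero]
    intro a ha
    by_contra hne
    obtain ⟨z, hzW, hz0, hzfix⟩ := exists_fixed_mem hP (RingHom.ker Φ).toAddSubgroup
      (fun h => hne (by
        have : a ∈ (RingHom.ker Φ).toAddSubgroup := ha
        rwa [h] at this))
      (fun x hx y => by
        change Φ (x * single y 1) = 0
        rw [map_mul, show Φ x = 0 from hx, zero_mul])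
    have hzs : z = z.coeff 1 • ∑ y : P, single y (1 : K) := by
      refine MonoidAlgebra.ext (Finsupp.ext fun g => ?_)
      simp [coeff_sum, coeff_single, Finsupp.single_apply, coeff_eq_of_fixed hzfix g]
    have hc : z.coeff 1 ≠ 0 := fun h => hz0 (by rw [hzs, h, zero_smul])
    have hz : incl z * e = 0 := annMap_eq_zero.1 hzW
    have hzinv : ∀ y : P, (single (y : G) (1 : K) * e).coeff 1 = if y = 1 then e.coeff 1 else 0 := by
      intro y
      rw [coeff_single_mul_apply, one_mul, mul_one]
      split_ifs with h
      · subst h; simp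
      · exact hsupp _ (P.inv_mem y.2) (by simpa using h)
    rw [hzs, map_smul, map_sum, smul_mul_assoc, Finset.sum_mul] at hz
    have h := congrArg (fun x : MonoidAlgebra K G => x.coeff 1) hz
    simp only [hincl, coeff_smul, Finsupp.smul_apply, coeff_sum, Finsupp.finsetSum_apply, hzinv,
      Finset.sum_ite_eq', Finset.mem_univ, if_true, smul_eq_mul, coeff_zero,
      Finsupp.zero_apply] at h
    exact mul_ne_zero hc h1 h
  have hsurj : Function.Surjective Φ := by
    haveI : FiniteDimensional K (MonoidAlgebra K P) :=
      Module.Finite.of_basis (MonoidAlgebra.basis P K)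
    refine (LinearMap.injective_iff_surjective_of_finrank_eq_finrank (f := Φ.toLinearMap) ?_).1 hinj
    rw [hdim, Module.finrank_eq_card_basis (MonoidAlgebra.basis P K), Nat.card_eq_fintype_card]
  refine ⟨fun y hy h => ?_, fun g hg => ?_⟩
  · have : (single (⟨y, hy⟩ : P) (1 : K)) = 1 := hinj (by
      rw [map_one]; simp only [Φ, AlgHom.comp_apply, hincl]; exact h)
    by_contra hne
    have := congrArg (fun x : MonoidAlgebra K P => x.coeff ⟨y, hy⟩) this
    simp [one_def, coeff_single, Finsupp.single_apply, Subtype.ext_iff, Ne.symm hne] at this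
  · obtain ⟨a, ha⟩ := hsurj (annMap e (single g 1))
    set n := orderOf g
    have hn : n ≠ 0 := (orderOf_pos g).ne'
    have hnK : (n : K) ≠ 0 := by rwa [Ne, CharP.cast_eq_zero_iff K p]
    have han : a ^ n = 1 := hinj (by
      rw [map_pow, ha, ← map_pow, single_pow, one_pow, pow_orderOf_eq_one, map_one, ← one_def,
        map_one])
    have haugincl : ∀ b : MonoidAlgebra K P, aug K G (incl b) = aug K P b := by
      intro b
      induction b using MonoidAlgebra.induction_linear with
      | zero => simp
      | add a b ha hb => simp [ha, hb]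
      | single m r => rw [hincl, aug_single, aug_single]
    have hauga : aug K P a = 1 := by
      have h := annMap_eq_iff.1 (show annMap e (incl a) = annMap e (single g 1) from ha)
      have h' := congrArg (aug K G) h
      rw [map_mul, map_mul, haugincl, aug_single] at h'
      exact mul_right_cancel₀ haug h'
    set π : MonoidAlgebra K P := (n : K)⁻¹ • ∑ i ∈ Finset.range n, a ^ i with hπ
    have haπ : a * π = π := by
      rw [hπ, mul_smul_comm]
      congr 1
      have h1 := Finset.sum_range_succ (fun i => a ^ i) n
      rw [Finset.sum_range_succ', han, pow_zero] at h1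
      rw [Finset.mul_sum]
      simpa [← pow_succ'] using add_right_cancel h1
    have hpow : ∀ i : ℕ, a ^ i * π = π := by
      intro i
      induction i with
      | zero => simp
      | succ i ih => rw [pow_succ', mul_assoc, ih, haπ]
    have hππ : π * π = π := by
      conv_lhs => arg 1; rw [hπ]
      rw [smul_mul_assoc, Finset.sum_mul, Finset.sum_congr rfl fun i _ => hpow i,
        Finset.sum_const, Finset.card_range, ← Nat.cast_smul_eq_nsmul K, smul_smul,
        inv_mul_cancel₀ hnK, one_smul]
    have h1π : 1 - π = 0 := by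
      refine idempotent_eq_zero hP ?_ ?_
      · rw [mul_sub, mul_one, sub_mul, one_mul, hππ, sub_self, sub_zero]
      · rw [map_sub, map_one, hπ, map_smul, map_sum]
        simp [hauga, hnK]
    rw [← ha, ← mul_one a, sub_eq_zero.1 h1π, haπ, ← sub_eq_zero.1 h1π, map_one]

end CfsgLib.BrauerCharacters.PLengthBlock
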