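import Cfsg.Agent.Lib.BrauerCharacters.PLengthBlock.Algebra
import Cfsg.Agent.Lib.BrauerPairs.ThirdMain

/-!
# Normal `p`-complements from the dimension of the principal block

If the squares of the degrees in the principal block add up to `|P|`, then the group has a
normal `p`-complement.
-/

set_option autoImplicit false
set_option linter.style.haveILetI false

namespace CfsgLib.BrauerCharacters.PLengthBlock

open MonoidAlgebra Module Cfsg CfsgLib.Blocks

variable {G : Type*} [Group G] [Fintype G] {p : ℕ} [hp : Fact p.Prime] {M : Ideal AlgInt}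

theorem aug_eq_sum {K : Type*} [CommRing K] (x : MonoidAlgebra K G) :
    aug K G x = ∑ g : G, x.coeff g := by
  classical
  induction x using MonoidAlgebra.induction_linear with
  | zero => simp
  | add a b ha hb => simp [ha, hb, Finset.sum_add_distrib]
  | single m r => simp [aug, coeff_single, Finsupp.single_apply]

theorem exists_normal_pComplement (hM : IsPModular p M) (P : Sylow p G)
    (hdim : ∑ᶠ χ ∈ principalBlock M G, ((charDegree (χ : G → ℂ) : ℂ)) ^ 2 =
      (Nat.card (P : Subgroup G) : ℂ)) :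
    ∃ K : Subgroup G, K.Normal ∧ ¬ p ∣ Nat.card K ∧
      ∀ g : G, ∃ k : ℕ, g ^ p ^ k ∈ K := by
  classical
  haveI : M.IsMaximal := hM.2.1
  haveI : M.IsPrime := isPrime_of_isPModular hM
  haveI := charP_res (M := M) hM
  set B := principalBlock M G with hBdef
  have hB : IsPBlock M B := BrauerPairs.isPBlock_principalBlock M
  set eR : MonoidAlgebra (locRing M) G :=
    (idemLoc M B (memLocalRing_blockCoeff hB) : MonoidAlgebra (locRing M) G) with heR
  have heRc : IsClassElem eR := (idemLoc M B (memLocalRing_blockCoeff hB)).2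
  have heRi : eR * eR = eR := congrArg Subtype.val (idemLoc_mul_self (memLocalRing_blockCoeff hB))
  set e : MonoidAlgebra (Res M) G := mapRingHom G (red M) eR with he
  have hec : IsClassElem e := heRc.map _
  have hei : e * e = e := by rw [he, ← map_mul, heRi]
  haveI := isTwoSided_annIdeal hec
  haveI := finiteDimensional_annQuot (e := e)
  have hcoeff : ∀ g, ((eR.coeff g : locRing M) : ℂ) = blockCoeff B g := fun g => by
    rw [heR, coe_coeff_idemLoc]
  have hec' : ∀ g, e.coeff g = red M (eR.coeff g) := fun g => by rw [he, coeff_mapRingHom]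
  have hsupp : ∀ y ∈ (P : Subgroup G), y ≠ 1 → e.coeff y = 0 := by
    intro y hy hy1
    rw [hec', red_eq_zero_iff, hcoeff, blockCoeff_eq_zero_of_dvd_orderOf hM hB]
    · exact memLocalIdeal_zero
    · obtain ⟨k, hk⟩ := IsPGroup.iff_orderOf.mp P.2 ⟨y, hy⟩
      rw [Subgroup.orderOf_mk] at hk
      rw [hk]
      exact dvd_pow_self p fun h => hy1 (orderOf_eq_one_iff.mp (by rw [hk, h, pow_zero]))
  obtain ⟨r, hr⟩ := exists_rank_of_idempotent (regMat_mul_self heRi)
  have hr1 : (r : ℂ) = ∑ᶠ χ ∈ B, ((charDegree (χ : G → ℂ) : ℂ)) ^ 2 := by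
    rw [← (hr ℂ (locRing M).subtype).2, regMat_map, heR, map_idemLoc, trace_regMat_blockIdem]
  have hr2 : r = Nat.card (P : Subgroup G) := by
    rw [hdim] at hr1
    exact_mod_cast hr1
  have hdim' : finrank (Res M) (MonoidAlgebra (Res M) G ⧸ annIdeal e) =
      Nat.card (P : Subgroup G) := by
    rw [← hr2, ← (hr (Res M) (red M)).1, regMat_map, ← he, finrank_annQuot]
  have h1 : e.coeff 1 ≠ 0 := by
    rw [hec', red_ne_zero_iff, hcoeff]
    have htr := trace_regMat_blockIdem (G := G) (B := B)
    rw [trace_regMat, hdim, coeff_blockIdem, ← Nat.card_eq_fintype_card,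
      ← (P : Subgroup G).card_mul_index, Nat.cast_mul, mul_assoc] at htr
    refine not_memLocalIdeal_of_mul_eq_one (y := ((P : Subgroup G).index : ℂ))
      (memLocalRing_natCast _) ?_
    rw [mul_comm]
    exact mul_left_cancel₀ (Nat.cast_ne_zero.2 Nat.card_pos.ne') (htr.trans (mul_one _).symm)
  have haug : aug (Res M) G e ≠ 0 := by
    rw [aug_eq_sum]
    simp only [hec']
    rw [← map_sum, red_ne_zero_iff]
    have h := omega_blockIdem_of_mem (B := B) (χ := CharTheory.trivIrr G)
      (BrauerPairs.trivIrr_mem_principalBlock M)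
    rw [omega_eq_sum] at h
    simp only [CharTheory.trivIrr_apply, mul_one, div_one, coeff_blockIdem] at h
    push_cast
    simp only [hcoeff, h]
    exact not_memLocalIdeal_one
  obtain ⟨hPinj, hreg⟩ := annMap_eq_one_of_finrank hei (P : Subgroup G) P.2 hsupp h1 haug hdim'
  let π : G →* (MonoidAlgebra (Res M) G ⧸ annIdeal e) :=
    (annMap e).toRingHom.toMonoidHom.comp (MonoidAlgebra.of (Res M) G)
  have hπ : ∀ g, π g = annMap e (single g 1) := fun g => rfl
  refine ⟨π.ker, inferInstance, ?_, ?_⟩
  · intro hd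
    obtain ⟨⟨x, hx⟩, hxo⟩ := exists_prime_orderOf_dvd_card' p hd
    rw [Subgroup.orderOf_mk] at hxo
    obtain ⟨S, hS⟩ := (IsPGroup.of_card (n := 1)
      (by rw [Nat.card_zpowers, hxo, pow_one]) : IsPGroup p (Subgroup.zpowers x)).exists_le_sylow
    obtain ⟨g, hg⟩ := MulAction.exists_smul_eq G S P
    have hmem : g * x * g⁻¹ ∈ (P : Subgroup G) := by
      rw [← hg]
      exact ⟨x, hS (Subgroup.mem_zpowers x), by simp [MulAut.conj_apply]⟩
    have h := hPinj _ hmem (by
      rw [← hπ, map_mul, map_mul, show π x = 1 from hx, mul_one, ← map_mul, mul_inv_cancel,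
        map_one])
    have hx1 : x = 1 := by simpa [mul_inv_eq_one] using h
    rw [hx1, orderOf_one] at hxo
    exact hp.out.one_lt.ne hxo
  · intro g
    obtain ⟨k, r, hr, he'⟩ := Nat.exists_eq_pow_mul_and_not_dvd (orderOf_pos g).ne' p hp.out.ne_one
    refine ⟨k, hreg _ ?_⟩
    rw [orderOf_pow_of_dvd (pow_ne_zero _ hp.out.ne_zero) (he' ▸ dvd_mul_right _ r), he',
      Nat.mul_div_cancel_left _ (pow_pos hp.out.pos k)]
    exact hr

end CfsgLib.BrauerCharacters.PLengthBlock
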