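import Cfsg.Agent.Lib.BrauerCharacters.PLengthBlock.Criterion
import Cfsg.Agent.Lib.BrauerPairs.PrincipalCover
import Cfsg.Agent.Lib.Correspondences.CharKer
import Cfsg.Agent.Lib.Correspondences.PrincipalBlock
import Cfsg.Agent.Lib.RealChar.CharSandwich
import Cfsg.Agent.Lib.BGTypes.PLengthOne

/-!
# `p`-length one and restrictions of the principal block to a Sylow normalizer
-/

set_option autoImplicit false
set_option linter.style.haveILetI false

namespace CfsgLib.BrauerCharacters.PLengthBlock

open Cfsg Finset CfsgLib.CharTheory CfsgLib.Blocks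
open scoped ComplexConjugate

variable {G : Type*} [Group G] [Fintype G] {p : ℕ} [hp : Fact p.Prime] {M : Ideal AlgInt}

/-- Only the trivial member of the principal block of the normal closure of `P` has a trivial
constituent on `P`. -/
theorem sum_sylow_eq_zero (hM : IsPModular p M) (P : Sylow p G)
    (hres : ∀ χ ∈ principalBlock M G,
      IsIrrCharacter ↥(Subgroup.normalizer ((P : Subgroup G) : Set G))
        (fun n : ↥(Subgroup.normalizer ((P : Subgroup G) : Set G)) => (χ : G → ℂ) n))
    (N : Subgroup G) [N.Normal] [Fintype N] (hN : N = Subgroup.normalClosure ((P : Subgroup G) : Set G))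
    (hPN : (P : Subgroup G) ≤ N) [Fintype ((P : Subgroup G).subgroupOf N)]
    {ψ : IrrCharacter N} (hψ : ψ ∈ principalBlock M N) (hne : ψ ≠ trivIrr N) :
    ∑ y : (P : Subgroup G).subgroupOf N, (ψ : N → ℂ) y = 0 := by
  classical
  haveI : M.IsPrime := isPrime_of_isPModular hM
  haveI := Fintype.ofFinite (IrrCharacter N)
  obtain ⟨χ, hχ, hne'⟩ := BrauerPairs.exists_principal_over hM N hψ
  obtain ⟨m, hm, hm'⟩ := BlockLocal.res_eq_sum N χ
  have hmψ : m ψ ≠ 0 := fun h => hne' (by rw [hm', h, Nat.cast_zero])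
  -- a non-trivial constituent prevents `P` from being in the kernel
  have hker : ¬ ∀ y ∈ (P : Subgroup G), (χ : G → ℂ) y = (χ : G → ℂ) 1 := by
    intro hy
    haveI := Correspondences.charKer_normal (IsIrrCharacter.isCharacter χ.2)
    have hNker : N ≤ Correspondences.charKer (IsIrrCharacter.isCharacter χ.2) :=
      hN ▸ Subgroup.normalClosure_le_normal hy
    refine hne' ?_
    have h : (fun n : N => (χ : G → ℂ) n) = fun n : N => (χ : G → ℂ) 1 * (trivIrr N : N → ℂ) n :=
      funext fun n => by rw [trivIrr_apply, mul_one]; exact hNker n.2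
    have h2 : classInner (trivIrr N : N → ℂ) (ψ : N → ℂ) = 0 := by
      rw [classInner_irr (trivIrr N).2 ψ.2, if_neg fun h => hne (Subtype.ext h.symm)]
    rw [h, classInner]
    simp only [mul_assoc, ← Finset.mul_sum]
    rw [classInner] at h2
    rw [mul_left_comm, h2, mul_zero]
  set NP := Subgroup.normalizer ((P : Subgroup G) : Set G)
  haveI : Fintype ((P : Subgroup G).subgroupOf NP) := Fintype.ofFinite _
  have h0 : ∑ y : (P : Subgroup G).subgroupOf NP, (χ : G → ℂ) ((y : NP) : G) = 0 := by
    have h := Correspondences.sum_coset_eq_zero (hres χ hχ) ((P : Subgroup G).subgroupOf NP) (by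
      push Not at hker
      obtain ⟨y, hy, hyne⟩ := hker
      exact ⟨⟨y, Subgroup.le_normalizer hy⟩, hy, hyne⟩) 1
    simpa using h
  have h1 : ∑ y : (P : Subgroup G).subgroupOf N, (χ : G → ℂ) ((y : N) : G) = 0 := by
    rw [← h0]
    exact Fintype.sum_equiv ((Subgroup.subgroupOfEquivOfLe hPN).trans
      (Subgroup.subgroupOfEquivOfLe Subgroup.le_normalizer).symm).toEquiv _ _ fun y => rfl
  simp only [hm] at h1
  rw [Finset.sum_comm] at h1
  simp only [← Finset.mul_sum] at h1
  have hnat : ∀ η : IrrCharacter N, ∃ k : ℕ,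
      ∑ y : (P : Subgroup G).subgroupOf N, (η : N → ℂ) y = (k : ℂ) := by
    intro η
    obtain ⟨k, hk⟩ := IsCharacter.exists_classInner_eq_nat
      (Coherence.isCharacter_comp (IsIrrCharacter.isCharacter η.2)
        ((P : Subgroup G).subgroupOf N).subtype) (trivIrr _)
    refine ⟨Nat.card ((P : Subgroup G).subgroupOf N) * k, ?_⟩
    rw [Nat.cast_mul, ← hk, classInner, ← mul_assoc,
      mul_inv_cancel₀ (Nat.cast_ne_zero.2 Nat.card_pos.ne'), one_mul]
    simp [trivIrr_apply]
  choose k hk using hnat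
  simp only [hk, ← Nat.cast_mul, ← Nat.cast_sum, Nat.cast_eq_zero, Finset.sum_eq_zero_iff,
    Finset.mem_univ, true_implies] at h1
  rw [hk, Nat.cast_eq_zero]
  exact (mul_eq_zero.1 (h1 ψ)).resolve_left hmψ

theorem pLengthLE_one_of_restrict (hM : IsPModular p M) (P : Sylow p G)
    (hres : ∀ χ ∈ principalBlock M G,
      IsIrrCharacter ↥(Subgroup.normalizer ((P : Subgroup G) : Set G))
        (fun n : ↥(Subgroup.normalizer ((P : Subgroup G) : Set G)) => (χ : G → ℂ) n)) :
    PLengthLE p 1 G := by
  classical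
  haveI : M.IsPrime := isPrime_of_isPModular hM
  set N := Subgroup.normalClosure ((P : Subgroup G) : Set G) with hN
  haveI : Fintype N := Fintype.ofFinite N
  have hPN : (P : Subgroup G) ≤ N := Subgroup.subset_normalClosure
  set Q := P.subtype hPN with hQ
  haveI : Fintype (Q : Subgroup N) := Fintype.ofFinite _
  haveI : Fintype ((P : Subgroup G).subgroupOf N) := Fintype.ofFinite _
  haveI := Fintype.ofFinite (IrrCharacter N)
  have hQc : (Q : Subgroup N) = (P : Subgroup G).subgroupOf N := Sylow.coe_subtype P hPN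
  set B := principalBlock M N
  have hB : IsPBlock M B := BrauerPairs.isPBlock_principalBlock M
  -- column orthogonality on `P`
  have hcol : ∀ y : (P : Subgroup G).subgroupOf N, (y : N) ≠ 1 →
      ∑ χ ∈ B.toFinite.toFinset, (χ : N → ℂ) 1 * conj ((χ : N → ℂ) y) = 0 := by
    intro y hy
    have h := blockCoeff_eq_zero_of_dvd_orderOf hM hB (y := (y : N)) (by
      obtain ⟨j, hj⟩ := IsPGroup.iff_orderOf.mp P.2 ⟨((y : N) : G), y.2⟩
      rw [← Subgroup.orderOf_coe] at hj
      change orderOf ((y : N) : G) = p ^ j at hj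
      rw [Subgroup.orderOf_coe] at hj
      rw [hj]
      exact dvd_pow_self p fun h => hy (orderOf_eq_one_iff.mp (by rw [hj, h, pow_zero])))
    rw [blockCoeff, finsum_mem_eq_finite_toFinset_sum _ B.toFinite] at h
    exact (mul_eq_zero.1 h).resolve_left (inv_ne_zero (Nat.cast_ne_zero.2 Nat.card_pos.ne'))
  have hdim : ∑ᶠ χ ∈ B, ((charDegree (χ : N → ℂ) : ℂ)) ^ 2 = (Nat.card (Q : Subgroup N) : ℂ) := by
    rw [finsum_mem_eq_finite_toFinset_sum _ B.toFinite, hQc]
    have h1 : ∑ χ ∈ B.toFinite.toFinset, (χ : N → ℂ) 1 *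
        conj (∑ y : (P : Subgroup G).subgroupOf N, (χ : N → ℂ) y) =
        (Nat.card ((P : Subgroup G).subgroupOf N) : ℂ) := by
      rw [Finset.sum_eq_single (trivIrr N)]
      · simp [trivIrr_apply]
      · intro ψ hψ hne
        rw [sum_sylow_eq_zero hM P hres N hN hPN ((Set.Finite.mem_toFinset _).1 hψ) hne,
          map_zero, mul_zero]
      · intro h
        exact absurd ((Set.Finite.mem_toFinset _).2 (BrauerPairs.trivIrr_mem_principalBlock M)) h
    rw [← h1]
    simp only [map_sum, Finset.mul_sum]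
    rw [Finset.sum_comm, Finset.sum_eq_single (1 : (P : Subgroup G).subgroupOf N)]
    · refine Finset.sum_congr rfl fun χ _ => ?_
      rw [OneMemClass.coe_one, ← BlockLocal.coe_charDegree, map_natCast, pow_two]
    · intro y _ hy
      exact hcol y (fun h => hy (Subtype.ext h))
    · simp
  obtain ⟨K, hKn, hKp, hKpow⟩ := exists_normal_pComplement hM Q hdim
  haveI := hKn
  -- `N` is a `p`-group modulo `O_{p'}(G)`
  have hKle : K.map N.subtype ≤ pPrimeCore p G := by
    haveI : (K.map N.subtype).Normal := by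
      refine ⟨fun x hx g => ?_⟩
      obtain ⟨k, hk, rfl⟩ := hx
      refine ⟨⟨g * (k : G) * g⁻¹, (inferInstance : N.Normal).conj_mem _ k.2 g⟩, ?_, rfl⟩
      obtain ⟨j, hj⟩ := hKpow ⟨g * (k : G) * g⁻¹, (inferInstance : N.Normal).conj_mem _ k.2 g⟩
      set z : N := ⟨g * (k : G) * g⁻¹, (inferInstance : N.Normal).conj_mem _ k.2 g⟩
      have hz : orderOf z = orderOf k := by
        rw [← Subgroup.orderOf_coe, ← Subgroup.orderOf_coe]
        exact (MulAut.conj g).orderOf_eq (k : G)
      have hco : (orderOf z).Coprime (p ^ j) := by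
        rw [hz]
        refine Nat.Coprime.pow_right _ (hp.out.coprime_iff_not_dvd.2 fun h => hKp ?_).symm
        exact h.trans (Subgroup.orderOf_dvd_natCard K hk)
      obtain ⟨i, hi⟩ := exists_pow_eq_self_of_coprime hco.symm
      rw [← hi]
      exact K.pow_mem hj _
    refine le_sSup ⟨inferInstance, ?_⟩
    rw [Subgroup.card_map_of_injective N.subtype_injective]
    exact (hp.out.coprime_iff_not_dvd.2 hKp).symm
  have hNle : N ≤ (upperPSeries p G 2).1 := by
    rw [PSolvable.upperPSeries_two]
    unfold pPrimePCore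
    rw [← Subgroup.map_le_iff_le_comap]
    haveI : (N.map (QuotientGroup.mk' (pPrimeCore p G))).Normal :=
      Subgroup.Normal.map inferInstance _ (QuotientGroup.mk'_surjective _)
    refine le_sSup ⟨inferInstance, ?_⟩
    rintro ⟨_, x, hx, rfl⟩
    obtain ⟨j, hj⟩ := hKpow ⟨x, hx⟩
    refine ⟨j, Subtype.ext ?_⟩
    rw [SubmonoidClass.coe_pow, OneMemClass.coe_one, ← map_pow, QuotientGroup.mk'_apply,
      QuotientGroup.eq_one_iff]
    exact hKle ⟨_, hj, by simp⟩
  show (upperPSeries p G (2 + 1)).1 = ⊤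
  rw [PSolvable.upperPSeries_succ_of_even (by simp), eq_top_iff, ← Subgroup.map_le_iff_le_comap,
    Subgroup.map_top_of_surjective _ (QuotientGroup.mk'_surjective _)]
  refine le_sSup ⟨inferInstance, ?_⟩
  rw [Subgroup.card_top, ← Subgroup.index_eq_card]
  refine (hp.out.coprime_iff_not_dvd.2 fun h => P.not_dvd_index ?_).symm
  exact h.trans ((Subgroup.index_dvd_of_le hNle).trans (Subgroup.index_dvd_of_le hPN))

theorem restrict_of_pLengthLE_one (hM : IsPModular p M) (P : Sylow p G) (hpl : PLengthLE p 1 G)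
    {χ : IrrCharacter G} (hχ : χ ∈ principalBlock M G) :
    IsIrrCharacter ↥(Subgroup.normalizer ((P : Subgroup G) : Set G))
      (fun n : ↥(Subgroup.normalizer ((P : Subgroup G) : Set G)) => (χ : G → ℂ) n) := by
  classical
  haveI : M.IsPrime := isPrime_of_isPModular hM
  haveI : (pPrimeCore p G).Normal := pPrimeCore_normal p G
  haveI : Fintype ↥(Subgroup.normalizer ((P : Subgroup G) : Set G)) := Fintype.ofFinite _
  refine RealChar.isIrrCharacter_comp_of_sup (pPrimeCore p G)
    (Subgroup.normalizer ((P : Subgroup G) : Set G)).subtype ?_ χ.2 ?_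
  · rw [Subgroup.range_subtype, eq_top_iff]
    intro x _
    obtain ⟨g, hg, m, hm, rfl⟩ := BGTypes.exists_normalizer_mul hpl P x
    exact mul_mem (Subgroup.mem_sup_right hg) (Subgroup.mem_sup_left hm)
  · intro n hn g
    exact Correspondences.apply_mul_of_mem_ker_left (IsIrrCharacter.isCharacter χ.2)
      (Correspondences.apply_eq_of_mem_principalBlock hM hχ _
        (hp.out.coprime_iff_not_dvd.1 (Cores.card_pPrimeCore_coprime (G := G) p).symm) hn) g

end CfsgLib.BrauerCharacters.PLengthBlock
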